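import Cfsg.Agent.Zassenhaus.Counting
import Cfsg.Agent.Frobenius.Complement

/-!
Zassenhaus groups with two point stabilizer of odd order and no normal complements: the stabilizer
is cyclic and inverted by the elements swapping the two points.
-/

set_option autoImplicit false

namespace CfsgLib.Zassenhaus.OddStab

open MulAction CfsgLib.Zassenhaus
open scoped commutatorElement

section Group

variable {G : Type*} [Group G]

theorem map_cyclic_conj {K : Subgroup G} [IsCyclic K] {g : G}
    (hg : ∀ k ∈ K, g * k * g⁻¹ ∈ K) : ∃ m : ℤ, ∀ k ∈ K, g * k * g⁻¹ = k ^ m := by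
  let σ : K →* K :=
    { toFun := fun k => ⟨g * k * g⁻¹, hg k k.2⟩
      map_one' := by apply Subtype.ext; simp
      map_mul' := fun x y => by apply Subtype.ext; simp [mul_assoc] }
  obtain ⟨m, hm⟩ := MonoidHom.map_cyclic σ
  exact ⟨m, fun k hk => congrArg Subtype.val (hm ⟨k, hk⟩)⟩

theorem eq_one_of_eq_inv_of_odd {g : G} (h : g = g⁻¹) (ho : Odd (orderOf g)) : g = 1 := by
  obtain ⟨m, hm⟩ := ho
  have h2 : g ^ 2 = 1 := by rw [pow_two]; exact mul_eq_one_iff_eq_inv.mpr h
  have h1 := pow_orderOf_eq_one g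
  rwa [hm, pow_succ, pow_mul, h2, one_pow, one_mul] at h1

/-- An involutory nontrivial automorphism of a cyclic group of odd prime power order inverts it. -/
theorem inverts_of_sq_centralizes [Finite G] {q : ℕ} [Fact q.Prime] (hq : q ≠ 2) {Q : Subgroup G}
    (hQ : IsPGroup q Q) [IsCyclic Q] {g : G} (hg : ∀ x ∈ Q, g * x * g⁻¹ ∈ Q)
    (hg2 : ∀ x ∈ Q, Commute (g * g) x) (hne : ∃ x ∈ Q, ¬ Commute g x) :
    ∀ x ∈ Q, g * x * g⁻¹ = x⁻¹ := by
  obtain ⟨m, hm⟩ := map_cyclic_conj hg
  obtain ⟨y, hy⟩ := IsCyclic.exists_zpow_surjective (G := Q)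
  have hodd : ∀ x ∈ Q, Odd (orderOf x) := fun x hx => by
    obtain ⟨k, hk⟩ := IsPGroup.iff_orderOf.mp hQ ⟨x, hx⟩
    rw [Subgroup.orderOf_mk] at hk
    rw [hk]
    exact (Nat.Prime.odd_of_ne_two Fact.out hq).pow
  have hcomm : ∀ u ∈ Q, ∀ v ∈ Q, Commute u v := fun u hu v hv =>
    congrArg Subtype.val (((inferInstance : IsMulCommutative Q).is_comm).comm ⟨u, hu⟩ ⟨v, hv⟩)
  have hgg : ∀ x ∈ Q, g * (g * x * g⁻¹) * g⁻¹ = x := fun x hx => by
    rw [show g * (g * x * g⁻¹) * g⁻¹ = g * g * x * (g * g)⁻¹ by group, (hg2 x hx).eq,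
      mul_inv_cancel_right]
  set v : G := (y : G) * (g * y * g⁻¹)⁻¹ with hv
  set w : G := (y : G) * (g * y * g⁻¹) with hw
  have hvQ : v ∈ Q := mul_mem y.2 (inv_mem (hg _ y.2))
  have hwQ : w ∈ Q := mul_mem y.2 (hg _ y.2)
  have hgv : g * v * g⁻¹ = v⁻¹ := by
    rw [hv, show g * ((y : G) * (g * y * g⁻¹)⁻¹) * g⁻¹ =
      (g * y * g⁻¹) * (g * (g * y * g⁻¹) * g⁻¹)⁻¹ by group, hgg _ y.2, mul_inv_rev, inv_inv]
  have hgw : g * w * g⁻¹ = w := by
    rw [hw, show g * ((y : G) * (g * y * g⁻¹)) * g⁻¹ =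
      (g * y * g⁻¹) * (g * (g * y * g⁻¹) * g⁻¹) by group, hgg _ y.2]
    exact (hcomm _ (hg _ y.2) _ y.2).eq
  have hv1 : v ≠ 1 := fun h => by
    obtain ⟨x, hx, hnc⟩ := hne
    apply hnc
    obtain ⟨i, hi⟩ := hy ⟨x, hx⟩
    have e : (y : G) ^ i = x := congrArg Subtype.val hi
    have hy' : Commute g (y : G) := by
      rw [hv, mul_inv_eq_one] at h
      show g * (y : G) = (y : G) * g
      conv_rhs => rw [h]
      rw [inv_mul_cancel_right]
    exact e ▸ hy'.zpow_right i
  have hw1 : w = 1 := by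
    by_contra hwne
    obtain ⟨k, hk⟩ := IsPGroup.iff_orderOf.mp hQ ⟨w, hwQ⟩
    obtain ⟨l, hl⟩ := IsPGroup.iff_orderOf.mp hQ ⟨v, hvQ⟩
    rw [Subgroup.orderOf_mk] at hk hl
    have hk0 : k ≠ 0 := fun h => hwne (orderOf_eq_one_iff.mp (by rw [hk, h, pow_zero]))
    have hl0 : l ≠ 0 := fun h => hv1 (orderOf_eq_one_iff.mp (by rw [hl, h, pow_zero]))
    obtain ⟨a, ha, hao⟩ : ∃ a ∈ Subgroup.zpowers w, orderOf a = q :=
      ⟨_, pow_mem (Subgroup.mem_zpowers w) _, orderOf_pow_orderOf_div (orderOf_pos w).ne'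
        (hk ▸ dvd_pow_self q hk0)⟩
    obtain ⟨b, hb, hbo⟩ : ∃ b ∈ Subgroup.zpowers v, orderOf b = q :=
      ⟨_, pow_mem (Subgroup.mem_zpowers v) _, orderOf_pow_orderOf_div (orderOf_pos v).ne'
        (hl ▸ dvd_pow_self q hl0)⟩
    have haQ : a ∈ Q := Subgroup.zpowers_le.mpr hwQ ha
    have hbQ : b ∈ Q := Subgroup.zpowers_le.mpr hvQ hb
    have hab : a ∈ Subgroup.zpowers b := by
      classical
      have : Fintype Q := Fintype.ofFinite _
      have hsub : ∀ u : Q, orderOf u = q → Finset.univ.filter (fun z => z ∈ Subgroup.zpowers u) =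
          Finset.univ.filter (fun z : Q => z ^ q = 1) := by
        intro u hu
        refine Finset.eq_of_subset_of_card_le (fun z hz => ?_) ?_
        · obtain ⟨i, rfl⟩ := (Finset.mem_filter.mp hz).2
          refine Finset.mem_filter.mpr ⟨Finset.mem_univ _, ?_⟩
          show (u ^ i) ^ q = 1
          rw [← zpow_natCast, ← zpow_mul, mul_comm, zpow_mul, zpow_natCast, ← hu,
            pow_orderOf_eq_one, one_zpow]
        · refine (IsCyclic.card_pow_eq_one_le (Fact.out : q.Prime).pos).trans ?_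
          rw [← Fintype.card_subtype, ← Nat.card_eq_fintype_card, Nat.card_zpowers, hu]
      have hm : (⟨a, haQ⟩ : Q) ∈ Finset.univ.filter
          (fun z => z ∈ Subgroup.zpowers (⟨b, hbQ⟩ : Q)) := by
        rw [hsub _ (by rw [Subgroup.orderOf_mk, hbo]),
          ← hsub ⟨a, haQ⟩ (by rw [Subgroup.orderOf_mk, hao])]
        simp
      obtain ⟨i, hi⟩ := (Finset.mem_filter.mp hm).2
      exact ⟨i, congrArg Subtype.val hi⟩
    have h1 : g * a * g⁻¹ = a := by
      obtain ⟨i, rfl⟩ := ha
      show g * w ^ i * g⁻¹ = w ^ i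
      rw [← conj_zpow, hgw]
    have h2 : g * a * g⁻¹ = a⁻¹ := by
      obtain ⟨i, rfl⟩ := hb
      obtain ⟨j, rfl⟩ := hab
      show g * (v ^ i) ^ j * g⁻¹ = ((v ^ i) ^ j)⁻¹
      rw [← conj_zpow, ← conj_zpow, hgv, inv_zpow, inv_zpow]
    have := eq_one_of_eq_inv_of_odd (h1.symm.trans h2) (hodd a haQ)
    rw [this, orderOf_one] at hao
    exact (Fact.out : q.Prime).one_lt.ne hao
  have hyinv : g * y * g⁻¹ = (y : G)⁻¹ := eq_inv_of_mul_eq_one_right hw1
  intro x hx
  obtain ⟨i, hi⟩ := hy ⟨x, hx⟩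
  have e : (y : G) ^ i = x := congrArg Subtype.val hi
  rw [← e, ← conj_zpow, hyinv, inv_zpow]

end Group

variable {G Ω : Type*} [Group G] [MulAction G Ω] [Finite G] [Fintype Ω]
  (hZ : Cfsg.IsZassenhausGroup G Ω) {a b : Ω} (hab : a ≠ b)
  (hodd : Odd (Nat.card (pairStab G a b)))

include hZ hab

theorem fix_or_swap {g x : G} (hx : x ∈ pairStab G a b) (hx1 : x ≠ 1)
    (hgx : g * x * g⁻¹ ∈ pairStab G a b) :
    g ∈ pairStab G a b ∨ (g • a = b ∧ g • b = a) := by
  have hne : g * x * g⁻¹ ≠ 1 := fun h => hx1 (conj_eq_one_iff.mp h)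
  obtain ⟨ha, hb⟩ := mem_pairStab.mp hgx
  have hga : (g * x * g⁻¹) • (g • a) = g • a := by simp [mul_smul, (mem_pairStab.mp hx).1]
  have hgb : (g * x * g⁻¹) • (g • b) = g • b := by simp [mul_smul, (mem_pairStab.mp hx).2]
  have hne' : g • a ≠ g • b := fun h => hab (smul_left_cancel g h)
  rcases fixed_eq_pair hZ hne hab ha hb hga with h | h <;>
    rcases fixed_eq_pair hZ hne hab ha hb hgb with h' | h'
  · exact absurd (h.trans h'.symm) hne'
  · exact Or.inl (mem_pairStab.mpr ⟨h, h'⟩)
  · exact Or.inr ⟨h, h'⟩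
  · exact absurd (h.trans h'.symm) hne'

omit hZ hab [Finite G] [Fintype Ω] in
theorem conj_mem_of_swap {g x : G} (hg : g • a = b ∧ g • b = a) (hx : x ∈ pairStab G a b) :
    g * x * g⁻¹ ∈ pairStab G a b := by
  have := conj_mem_pairStab (g := g) hx
  rw [hg.1, hg.2, mem_pairStab] at this
  exact mem_pairStab.mpr this.symm

include hodd in
theorem isZGroup : IsZGroup (pairStab G a b) := by
  classical
  set H := pairStab G a b with hH
  set A := stabilizer G a with hA
  have hle : H ≤ A := inf_le_left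
  have hcomp : Cfsg.IsFrobeniusComplement (H.subgroupOf A) := by
    refine CfsgLib.Frobenius.isFrobeniusComplement_iff.mpr ⟨fun h => ?_, fun h => ?_, ?_⟩
    · have e := disjoint_iff.mp (Subgroup.subgroupOf_eq_bot.mp h)
      rw [inf_eq_left.mpr hle] at e
      exact pairStab_ne_bot hZ hab e
    · have h1 := card_stabilizer hZ hab
      have h2 : Nat.card A ≤ Nat.card H :=
        Nat.card_le_card_of_injective (fun x : A => (⟨x.1, Subgroup.subgroupOf_eq_top.mp h x.2⟩ : H))
          fun x y e => Subtype.ext (congrArg (fun z : H => (z : G)) e)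
      rw [h1, ← hH] at h2
      have h3 := three_le_card hZ
      have h4 : 0 < Nat.card H := Nat.card_pos
      have h5 : 2 * Nat.card H ≤ (Fintype.card Ω - 1) * Nat.card H :=
        Nat.mul_le_mul_right _ (by omega)
      omega
    · intro g x hx hx1 hgx
      rcases fix_or_swap hZ hab (g := (g : G)) (x := (x : G)) hx (fun e => hx1 (Subtype.ext e)) hgx with h | h
      · exact h
      · exact absurd ((mem_stabilizer_iff.mp g.2).symm.trans h.1) hab
  obtain ⟨K, hKn, hKset, hKc, hKH, -⟩ := CfsgLib.Chars.Apps.frobenius_kernel_theorem hcomp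
  have := hKn
  let φ : H.subgroupOf A →* MulAut K :=
    (MulAut.conjNormal (H := K)).comp (H.subgroupOf A).subtype
  have hfpf : ∀ x : H.subgroupOf A, x ≠ 1 → ∀ n : K, φ x n = n → n = 1 := by
    intro x hx n hn
    have h1 : (x : A) * n * (x : A)⁻¹ = n := congrArg Subtype.val hn
    have h2 : (n : A) * x * (n : A)⁻¹ = x := by
      rw [mul_inv_eq_iff_eq_mul] at h1 ⊢
      exact h1.symm
    have h3 : (n : A) ∈ H.subgroupOf A :=
      (CfsgLib.Frobenius.isFrobeniusComplement_iff.mp hcomp).2.2 n x x.2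
        (fun e => hx (Subtype.ext e)) (by rw [h2]; exact x.2)
    have h4 : (n : A) ∈ K ⊓ H.subgroupOf A := ⟨n.2, h3⟩
    rw [hKH, Subgroup.mem_bot] at h4
    exact Subtype.ext h4
  haveI : Nontrivial K := by
    rw [← Finite.one_lt_card_iff_nontrivial, hKc]
    exact CfsgLib.Frobenius.one_lt_index hcomp
  have hoddA : Odd (Nat.card (H.subgroupOf A)) := by
    rw [Nat.card_congr (Subgroup.subgroupOfEquivOfLe hle).toEquiv]
    exact hodd
  suffices h : IsZGroup (H.subgroupOf A) from
    IsZGroup.of_injective (f := (Subgroup.subgroupOfEquivOfLe hle).symm.toMonoidHom)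
      (Subgroup.subgroupOfEquivOfLe hle).symm.injective
  refine ⟨fun p hp P => ?_⟩
  haveI := Fact.mk hp
  by_cases hpd : p ∣ Nat.card (P : Subgroup (H.subgroupOf A))
  · have hp2 : p ≠ 2 := fun h2 => by
      subst h2
      exact hoddA.not_two_dvd_nat (hpd.trans (Subgroup.card_subgroup_dvd_card _))
    refine CfsgLib.Frobenius.isCyclic_of_odd_pGroup hp2 P.2 fun B hB => ?_
    have e := B.equivMapOfInjective (P : Subgroup (H.subgroupOf A)).subtype Subtype.val_injective
    haveI hc := CfsgLib.Frobenius.FPF.isCyclic_of_comm hfpf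
      (B.map (P : Subgroup (H.subgroupOf A)).subtype)
      (by
        haveI := hB
        exact ⟨⟨fun u v => e.symm.injective (by rw [map_mul, map_mul]; exact (hB.is_comm).comm _ _)⟩⟩)
    exact isCyclic_of_surjective e.symm e.symm.surjective
  · obtain ⟨k, hk⟩ := P.2.exists_card_eq
    rcases Nat.eq_zero_or_pos k with h0 | h0
    · haveI : Subsingleton (P : Subgroup (H.subgroupOf A)) :=
        (Nat.card_eq_one_iff_unique.mp (by rw [hk, h0, pow_zero])).1
      exact isCyclic_of_subsingleton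
    · exact absurd (hk ▸ dvd_pow_self p h0.ne') hpd

variable (hnil : ∀ q : ℕ, q.Prime → q ∣ Nat.card (pairStab G a b) →
  ¬ ∃ N : Subgroup G, N.Normal ∧ N.index = q ^ (Nat.card G).factorization q)

include hodd hnil

theorem cyclic_centralizer_inverts :
    IsCyclic (pairStab G a b) ∧
      Subgroup.centralizer (pairStab G a b : Set G) = pairStab G a b ∧
      ∀ s : G, s • a = b → s • b = a → ∀ h ∈ pairStab G a b, s * h * s⁻¹ = h⁻¹ := by
  classical
  set H := pairStab G a b with hH
  haveI hZg : IsZGroup H := isZGroup hZ hab hodd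
  set K := (commutator H).map H.subtype with hK
  have hKH : K ≤ H := Subgroup.map_subtype_le _
  haveI : IsCyclic (commutator H) := IsZGroup.isCyclic_commutator _
  haveI : IsCyclic K := isCyclic_of_surjective
    ((commutator H).equivMapOfInjective H.subtype Subtype.val_injective)
    ((commutator H).equivMapOfInjective H.subtype Subtype.val_injective).surjective
  have hKcop := IsZGroup.coprime_commutator_index H
  -- a swapper for each Sylow subgroup outside the commutator subgroup
  have key : ∀ q : ℕ, q.Prime → q ∣ Nat.card H → ¬ q ∣ Nat.card (commutator H) →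
      ∀ Q : Sylow q H, ∃ g : G, (g • a = b ∧ g • b = a) ∧
        ∀ x : H, x ∈ (Q : Subgroup H) → g * (x : G) * g⁻¹ = (x : G)⁻¹ := by
    intro q hq hqH hqK Q
    haveI := Fact.mk hq
    have hq2 : q ≠ 2 := fun h => by subst h; exact hodd.not_two_dvd_nat hqH
    set P := (Q : Subgroup H).map H.subtype with hP
    have hPp : IsPGroup q P := Q.2.map _
    have hPne : P ≠ ⊥ := fun h => by
      rw [hP, Subgroup.map_eq_bot_iff_of_injective _ Subtype.val_injective] at h
      exact Q.ne_bot_of_dvd_card hqH h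
    obtain ⟨⟨x0, hx0⟩, hx01⟩ := Subgroup.ne_bot_iff_exists_ne_one.mp hPne
    have hx01' : x0 ≠ 1 := fun e => hx01 (Subtype.ext e)
    have hPH : P ≤ H := Subgroup.map_subtype_le _
    -- it is a Sylow subgroup of the group
    obtain ⟨S, hS⟩ := hPp.exists_le_sylow
    have hSP : (S : Subgroup G) = P := by
      by_contra hne
      have hlt : P.subgroupOf S < ⊤ := lt_top_iff_ne_top.mpr fun h =>
        hne (le_antisymm (Subgroup.subgroupOf_eq_top.mp h) hS)
      haveI : Group.IsNilpotent (S : Subgroup G) := S.2.isNilpotent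
      obtain ⟨⟨g, hgS⟩, hgN, hgnot⟩ := SetLike.exists_of_lt
        (Group.normalizerCondition_of_isNilpotent (P.subgroupOf S) hlt)
      have hgP : g * x0 * g⁻¹ ∈ P :=
        (Subgroup.mem_normalizer_iff.mp hgN ⟨x0, hS hx0⟩).mp hx0
      rcases fix_or_swap hZ hab (hPH hx0) hx01' (hPH hgP) with hg | hg
      · let g' : H := ⟨g, hg⟩
        have hgp : g' ∈ Subgroup.normalizer ((Q : Subgroup H) : Set H) := by
          rw [Subgroup.mem_normalizer_iff]
          intro y
          constructor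
          · intro hy
            have := (Subgroup.mem_normalizer_iff.mp hgN ⟨y, hS ⟨y, hy, rfl⟩⟩).mp ⟨y, hy, rfl⟩
            obtain ⟨z, hz, hzy⟩ := this
            have : z = g' * y * g'⁻¹ := Subtype.ext hzy
            exact this ▸ hz
          · intro hy
            have hm : g * (y : G) * g⁻¹ ∈ P := ⟨_, hy, rfl⟩
            have hyS : (y : G) ∈ (S : Subgroup G) := by
              rw [show (y : G) = g⁻¹ * (g * y * g⁻¹) * g by group]
              exact mul_mem (mul_mem (inv_mem hgS) (hS hm)) hgS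
            obtain ⟨z, hz, hzy⟩ := (Subgroup.mem_normalizer_iff.mp hgN ⟨(y : G), hyS⟩).mpr hm
            exact (Subtype.ext hzy : z = y) ▸ hz
        have hord : ∃ k, orderOf g' = q ^ k := by
          obtain ⟨k, hk⟩ := IsPGroup.iff_orderOf.mp S.2 ⟨g, hgS⟩
          rw [Subgroup.orderOf_mk] at hk
          exact ⟨k, by rw [Subgroup.orderOf_mk]; exact hk⟩
        obtain ⟨k, hk⟩ := hord
        have hzp : IsPGroup q (Subgroup.zpowers g') := IsPGroup.of_card (n := k) (by
          rw [Nat.card_zpowers, hk])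
        have hsup : IsPGroup q ((Q : Subgroup H) ⊔ Subgroup.zpowers g' : Subgroup H) :=
          Q.2.to_sup_of_normal_left' hzp (Subgroup.zpowers_le.mpr hgp)
        have := Q.3 hsup le_sup_left
        exact hgnot (show g ∈ P from ⟨g', this ▸ Subgroup.mem_sup_right (Subgroup.mem_zpowers g'), rfl⟩)
      · obtain ⟨k, hk⟩ := IsPGroup.iff_orderOf.mp S.2 ⟨g, hgS⟩
        rw [Subgroup.orderOf_mk] at hk
        have hok : Odd (orderOf g) := hk ▸ (hq.odd_of_ne_two hq2).pow
        obtain ⟨m, hm⟩ := hok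
        have hfix : (g ^ 2) ^ m • a = a := by
          have : ∀ i : ℕ, (g ^ 2) ^ i • a = a := fun i => by
            induction i with
            | zero => simp
            | succ i ih => rw [pow_succ, mul_smul, show g ^ 2 • a = a by rw [pow_two, mul_smul, hg.1, hg.2], ih]
          exact this m
        have h1 : g ^ orderOf g • a = a := by rw [pow_orderOf_eq_one, one_smul]
        rw [hm, pow_succ', pow_mul, mul_smul, hfix, hg.1] at h1
        exact hab h1.symm
    -- the normalizer does not centralize it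
    have hnc : ¬ Subgroup.normalizer (S : Set G) ≤ Subgroup.centralizer (S : Set G) := by
      intro h
      refine hnil q hq hqH ⟨(MonoidHom.transferSylow S h).ker, inferInstance, ?_⟩
      rw [(MonoidHom.ker_transferSylow_isComplement' S h).symm.index_eq_card, S.card_eq_multiplicity]
    obtain ⟨g, hgN, hgC⟩ := SetLike.not_le_iff_exists.mp hnc
    have hSset : (S : Set G) = (P : Set G) := congrArg SetLike.coe hSP
    rw [hSset] at hgN hgC
    have hgP : ∀ y ∈ P, g * y * g⁻¹ ∈ P := fun y hy => (Subgroup.mem_normalizer_iff.mp hgN y).mp hy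
    -- elements of the stabilizer normalizing it centralize it
    have hin : ∀ h ∈ H, (∀ y ∈ P, h * y * h⁻¹ ∈ P) → ∀ y ∈ P, Commute h y := by
      intro h hh hn y hy
      obtain ⟨y', hy', rfl⟩ := hy
      obtain ⟨z, hz, hzy⟩ := hn y' ⟨y', hy', rfl⟩
      have e : z * y'⁻¹ = ⁅(⟨h, hh⟩ : H), y'⁆ := by
        apply Subtype.ext
        show (z : G) * (y' : G)⁻¹ = ⁅h, (y' : G)⁆
        rw [commutatorElement_def]
        congr 1
      have hmem : z * y'⁻¹ ∈ (Q : Subgroup H) ⊓ commutator H :=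
        ⟨Subgroup.mul_mem _ hz (Subgroup.inv_mem _ hy'), e ▸ Subgroup.commutator_mem_commutator (Subgroup.mem_top _)
          (Subgroup.mem_top _)⟩
      have hbot : (Q : Subgroup H) ⊓ commutator H = ⊥ :=
        (Subgroup.inf_eq_bot_of_coprime (by
          obtain ⟨k, hk⟩ := Q.2.exists_card_eq
          rw [hk]
          exact Nat.Coprime.pow_left k (hq.coprime_iff_not_dvd.mpr hqK)))
      rw [hbot, Subgroup.mem_bot, mul_inv_eq_one] at hmem
      rw [hmem] at hzy
      exact mul_inv_eq_iff_eq_mul.mp hzy.symm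
    rcases fix_or_swap hZ hab (hPH hx0) hx01' (hPH (hgP x0 hx0)) with hg | hg
    · exact absurd (Subgroup.mem_centralizer_iff.mpr fun y hy => (hin g hg hgP y hy).eq.symm) hgC
    refine ⟨g, hg, fun x hx => ?_⟩
    haveI : IsCyclic (Q : Subgroup H) := IsZGroup.isZGroup q hq Q
    haveI : IsCyclic P := isCyclic_of_surjective
      ((Q : Subgroup H).equivMapOfInjective H.subtype Subtype.val_injective)
      ((Q : Subgroup H).equivMapOfInjective H.subtype Subtype.val_injective).surjective
    have hg2 : g * g ∈ H := mem_pairStab.mpr ⟨by rw [mul_smul, hg.1, hg.2],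
      by rw [mul_smul, hg.2, hg.1]⟩
    refine inverts_of_sq_centralizes hq2 hPp hgP (hin _ hg2 fun y hy => ?_) ?_ _ ⟨x, hx, rfl⟩
    · rw [show g * g * y * (g * g)⁻¹ = g * (g * y * g⁻¹) * g⁻¹ by group]
      exact hgP _ (hgP y hy)
    · by_contra hall
      push Not at hall
      exact hgC (Subgroup.mem_centralizer_iff.mpr fun y hy => (hall y hy).eq.symm)
  -- the commutator subgroup is central
  have hcent : ∀ k ∈ commutator H, ∀ x : H, Commute k x := by
    intro k hk
    suffices hC : Subgroup.centralizer ((commutator H : Subgroup H) : Set H) = ⊤ from fun x =>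
      (Subgroup.mem_centralizer_iff.mp (hC ▸ Subgroup.mem_top x) k hk)
    rw [← Subgroup.index_eq_one]
    by_contra hne
    obtain ⟨q, hq, hqd⟩ := Nat.exists_prime_and_dvd hne
    haveI := Fact.mk hq
    have hKle : commutator H ≤ Subgroup.centralizer ((commutator H : Subgroup H) : Set H) :=
      fun u hu => Subgroup.mem_centralizer_iff.mpr fun v hv =>
        congrArg Subtype.val (((inferInstance : IsMulCommutative (commutator H)).is_comm).comm
          ⟨v, hv⟩ ⟨u, hu⟩)
    have hqi : q ∣ (commutator H).index := hqd.trans (Subgroup.index_dvd_of_le hKle)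
    have hqK : ¬ q ∣ Nat.card (commutator H) := fun h =>
      Nat.Prime.not_coprime_iff_dvd.mpr ⟨q, hq, h, hqi⟩ hKcop
    let Q : Sylow q H := default
    obtain ⟨g, hg, hginv⟩ := key q hq (hqi.trans (commutator H).index_dvd_card) hqK Q
    have hQle : (Q : Subgroup H) ≤ Subgroup.centralizer ((commutator H : Subgroup H) : Set H) := by
      intro x hx
      rw [Subgroup.mem_centralizer_iff]
      intro u hu
      have hgK : ∀ v ∈ K, g * v * g⁻¹ ∈ K := by
        let σ : H →* H :=
          { toFun := fun y => ⟨g * y * g⁻¹, conj_mem_of_swap hg y.2⟩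
            map_one' := by apply Subtype.ext; simp
            map_mul' := fun y z => by apply Subtype.ext; simp [mul_assoc] }
        rintro _ ⟨v, hv, rfl⟩
        refine ⟨σ v, ?_, rfl⟩
        exact (Subgroup.commutator_mono le_top le_top : ⁅Subgroup.map σ ⊤, Subgroup.map σ ⊤⁆ ≤ _)
          (Subgroup.map_commutator ⊤ ⊤ σ ▸ Subgroup.mem_map_of_mem σ hv)
      have hxK : ∀ v ∈ K, (x : G) * v * (x : G)⁻¹ ∈ K := by
        rintro _ ⟨v, hv, rfl⟩
        exact ⟨x * v * x⁻¹, (inferInstance : (commutator H).Normal).conj_mem v hv x, rfl⟩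
      obtain ⟨i, hi⟩ := map_cyclic_conj hgK
      obtain ⟨j, hj⟩ := map_cyclic_conj hxK
      have huK : (u : G) ∈ K := ⟨u, hu, rfl⟩
      have hgu : g * (u : G) * g⁻¹ = (u : G) ^ i := hi _ huK
      have hxu : ∀ m : ℤ, (x : G) * (u : G) ^ m * (x : G)⁻¹ = ((u : G) ^ m) ^ j :=
        fun m => hj _ (zpow_mem huK m)
      -- conjugating by `g x` and by `x⁻¹ g` agree
      have h1 : g * ((x : G) * u * (x : G)⁻¹) * g⁻¹ = (x : G) * (g * u * g⁻¹) * (x : G)⁻¹ := by
        rw [hgu, hxu i, hj _ huK, ← conj_zpow, hgu]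
      have h2 : g * ((x : G) * u * (x : G)⁻¹) * g⁻¹ =
          (x : G)⁻¹ * (g * u * g⁻¹) * (x : G) := by
        rw [show g * ((x : G) * u * (x : G)⁻¹) * g⁻¹ =
          (g * x * g⁻¹) * (g * u * g⁻¹) * (g * x * g⁻¹)⁻¹ by group, hginv x hx, inv_inv]
      have h3 : Commute ((x : G) * x) (g * u * g⁻¹) := by
        have h12 := h1.symm.trans h2
        calc (x : G) * x * (g * u * g⁻¹)
            = x * ((x : G) * (g * u * g⁻¹) * (x : G)⁻¹) * x := by group
          _ = x * ((x : G)⁻¹ * (g * u * g⁻¹) * x) * x := by rw [h12]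
          _ = g * u * g⁻¹ * (x * x) := by group
      obtain ⟨l, hl⟩ : ∃ l, orderOf (x : G) = 2 * l + 1 := by
        rw [Subgroup.orderOf_coe]
        exact hodd.of_dvd_nat (orderOf_dvd_natCard x)
      have h4 : Commute (x : G) (g * u * g⁻¹) := by
        have := h3.pow_left (l + 1)
        rwa [← pow_two, ← pow_mul, show 2 * (l + 1) = 2 * l + 1 + 1 by omega, pow_succ, ← hl,
          pow_orderOf_eq_one, one_mul] at this
      -- transport back by the swapper
      have h5 := (Commute.conj_iff g⁻¹).mpr h4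
      rw [show g⁻¹ * (g * u * g⁻¹) * g⁻¹⁻¹ = u by group,
        show g⁻¹ * (x : G) * g⁻¹⁻¹ = (x : G)⁻¹ by
          have := congrArg (fun z => g⁻¹ * z * g) (hginv x hx)
          simp only [inv_inv] at this ⊢
          have e : g⁻¹ * (g * (x : G) * g⁻¹) * g = (x : G) := by group
          rw [e] at this
          calc g⁻¹ * (x : G) * g = (g⁻¹ * (x : G)⁻¹ * g)⁻¹ := by group
            _ = (x : G)⁻¹ := by rw [← this]] at h5
      exact Subtype.ext ((Commute.inv_left_iff.mp h5).eq.symm)
    exact Q.not_dvd_index (hqd.trans (Subgroup.index_dvd_of_le hQle))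
  have hcomm : ∀ u v : H, u * v = v * u := by
    haveI : IsCyclic (H ⧸ commutator H) := (inferInstance : IsCyclic (Abelianization H))
    exact commutative_of_cyclic_center_quotient (QuotientGroup.mk' (commutator H)) (by
      rw [QuotientGroup.ker_mk']
      exact fun u hu => Subgroup.mem_center_iff.mpr fun v => (hcent u hu v).eq.symm)
  letI : CommGroup H := { (inferInstance : Group H) with mul_comm := hcomm }
  have hcyc : IsCyclic H := IsCyclic.iff_exponent_eq_card.mpr (IsZGroup.exponent_eq_card _)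
  have hK1 : commutator H = ⊥ := by
    rw [commutator_def, eq_bot_iff, Subgroup.commutator_le]
    intro u _ v _
    rw [Subgroup.mem_bot, commutatorElement_eq_one_iff_commute]
    exact hcomm u v
  have hinv : ∀ s : G, s • a = b → s • b = a → ∀ h ∈ H, s * h * s⁻¹ = h⁻¹ := by
    intro s hsa hsb
    let I : Subgroup H :=
      { carrier := {h | s * (h : G) * s⁻¹ = (h : G)⁻¹}
        one_mem' := by simp
        mul_mem' := fun {u v} hu hv => by
          show s * ((u * v : H) : G) * s⁻¹ = ((u * v : H) : G)⁻¹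
          conv_rhs => rw [hcomm u v]
          push_cast
          rw [mul_inv_rev, ← show s * (u : G) * s⁻¹ = (u : G)⁻¹ from hu,
            ← show s * (v : G) * s⁻¹ = (v : G)⁻¹ from hv]
          group
        inv_mem' := fun {u} hu => by
          show s * ((u⁻¹ : H) : G) * s⁻¹ = ((u⁻¹ : H) : G)⁻¹
          push_cast
          rw [show s * (u : G)⁻¹ * s⁻¹ = (s * (u : G) * s⁻¹)⁻¹ by group,
            show s * (u : G) * s⁻¹ = (u : G)⁻¹ from hu] }
    have hI : I = ⊤ := by
      rw [← Subgroup.index_eq_one]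
      by_contra hne
      obtain ⟨q, hq, hqd⟩ := Nat.exists_prime_and_dvd hne
      haveI := Fact.mk hq
      let Q : Sylow q H := default
      obtain ⟨g, hg, hginv⟩ := key q hq (hqd.trans I.index_dvd_card)
        (by rw [hK1, Subgroup.card_bot]; exact hq.not_dvd_one) Q
      refine Q.not_dvd_index (hqd.trans (Subgroup.index_dvd_of_le fun x hx => ?_))
      show s * (x : G) * s⁻¹ = (x : G)⁻¹
      have hsg : s * g⁻¹ ∈ H := mem_pairStab.mpr
        ⟨by rw [mul_smul, inv_smul_eq_iff.mpr hg.2.symm, hsb],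
          by rw [mul_smul, inv_smul_eq_iff.mpr hg.1.symm, hsa]⟩
      rw [show s * (x : G) * s⁻¹ = (s * g⁻¹) * (g * x * g⁻¹) * (s * g⁻¹)⁻¹ by group, hginv x hx]
      exact mul_inv_eq_iff_eq_mul.mpr (congrArg Subtype.val (hcomm ⟨_, hsg⟩ x⁻¹))
    intro h hh
    exact (hI ▸ Subgroup.mem_top (⟨h, hh⟩ : H) : (⟨h, hh⟩ : H) ∈ I)
  refine ⟨hcyc, le_antisymm (fun c hc => ?_) (fun c hc => Subgroup.mem_centralizer_iff.mpr
    fun h hh => congrArg Subtype.val (hcomm ⟨h, hh⟩ ⟨c, hc⟩)), hinv⟩
  obtain ⟨⟨x, hx⟩, hx1⟩ := Subgroup.ne_bot_iff_exists_ne_one.mp (pairStab_ne_bot hZ hab)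
  have hx1' : x ≠ 1 := fun e => hx1 (Subtype.ext e)
  have hcx : c * x * c⁻¹ = x := by
    rw [← Subgroup.mem_centralizer_iff.mp hc x hx, mul_inv_cancel_right]
  rcases fix_or_swap hZ hab hx hx1' (g := c) (by rw [hcx]; exact hx) with h | h
  · exact h
  · exfalso
    refine hx1' (eq_one_of_eq_inv_of_odd (hcx.symm.trans (hinv c h.1 h.2 x hx)) ?_)
    rw [← Subgroup.orderOf_mk x hx]
    exact hodd.of_dvd_nat (orderOf_dvd_natCard _)

end CfsgLib.Zassenhaus.OddStab
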